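import Cfsg.Agent.Lib.Helper17.ReeOut.Defs
import Cfsg.Agent.Lib.Helper17.ReeMult.CA
import Cfsg.Agent.Lib.Helper59.SzMultA

set_option autoImplicit false

/-!
# (AUTU) an endomorphism of the Sylow `3`-subgroup of a small Ree group

An endomorphism that fixes the torus `{Hh ν}`, maps `{T t a b}` onto itself and preserves the
first coordinate is the identity on `{T t a b}`.
-/

universe u v

namespace Cfsg.Agent.Lib.Helper71.ReeOut

open Cfsg.Agent.Lib.Helper17.ReeMult (UData exp_arith two_ne_zero_of_card)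
open Cfsg.Agent.Lib.Helper17.ReeOut (PkgAutU)
open Cfsg.Agent.Lib.Helper59 (exists_eval_ne_zero)

/-- a finite field with `3 ^ k` elements has characteristic `3` -/
theorem charP_three_of_card_h71 {F : Type*} [Field F] [Fintype F] {k : ℕ}
    (hF : Fintype.card F = 3 ^ k) : CharP F 3 := by
  obtain ⟨p, hp⟩ := CharP.exists F
  have := hp
  obtain ⟨n, hpn, hcard⟩ := FiniteField.card F p
  rw [hF] at hcard
  have h3 : p ∣ 3 ^ k := by
    rw [hcard]
    exact dvd_pow_self p n.ne_zero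
  have : p = 3 := (Nat.prime_dvd_prime_iff_eq hpn Nat.prime_three).mp (hpn.dvd_of_dvd_pow h3)
  subst this
  exact hp

/-- every element of a finite field of odd order is a sum of two squares -/
theorem exists_sq_add_sq_h71 {F : Type*} [Field F] [Fintype F]
    (hodd : Fintype.card F % 2 = 1) (x : F) : ∃ a b : F, a ^ 2 + b ^ 2 = x := by
  classical
  obtain ⟨a, b, hab⟩ : ∃ a b : F, (Polynomial.X ^ 2 : Polynomial F).eval a +
      (Polynomial.X ^ 2 - Polynomial.C x : Polynomial F).eval b = 0 :=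
    FiniteField.exists_root_sum_quadratic (Polynomial.degree_X_pow 2)
      (Polynomial.degree_X_pow_sub_C (by decide) _) hodd
  refine ⟨a, b, ?_⟩
  simp only [Polynomial.eval_C, Polynomial.eval_X, Polynomial.eval_pow, Polynomial.eval_sub] at hab
  linear_combination hab

/-- some element of a field with `3 ^ (2 m + 1)` elements is not fixed by `t ↦ t ^ 3 ^ m` -/
theorem exists_pow_ne_self_h71 {F : Type*} [Field F] [Fintype F] {m : ℕ} (hm : 1 ≤ m)
    (hF : Fintype.card F = 3 ^ (2 * m + 1)) : ∃ t : F, t ^ 3 ^ m ≠ t := by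
  classical
  have hθ3 : 3 ≤ 3 ^ m := by
    calc 3 = 3 ^ 1 := by norm_num
      _ ≤ 3 ^ m := Nat.pow_le_pow_right (by norm_num) hm
  have hdeg : (Polynomial.X ^ 3 ^ m - Polynomial.X : Polynomial F).natDegree = 3 ^ m :=
    FiniteField.X_pow_card_sub_X_natDegree_eq F (by omega)
  obtain ⟨t, ht⟩ := exists_eval_ne_zero (Polynomial.X ^ 3 ^ m - Polynomial.X : Polynomial F)
    (FiniteField.X_pow_card_sub_X_ne_zero F (by omega))
    (by
      rw [hdeg, hF]
      have : 3 ^ (2 * m + 1) = 3 * 3 ^ m * 3 ^ m := by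
        rw [pow_succ, pow_mul']
        ring
      rw [this]
      nlinarith)
  refine ⟨t, fun h => ht ?_⟩
  simp only [Polynomial.eval_sub, Polynomial.eval_pow, Polynomial.eval_X]
  rw [h, sub_self]

theorem pkgAutU : PkgAutU.{u, v} := by
  intro F _ _ G _ m T Hh φ hm hF D hinj hφH hφT hsurj
  classical
  have : Fact (Nat.Prime 3) := ⟨Nat.prime_three⟩
  have hchar : CharP F 3 := charP_three_of_card_h71 hF
  have hθ0 : (3 : ℕ) ^ m ≠ 0 := pow_ne_zero _ (by norm_num)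
  have h0θ : (0 : F) ^ 3 ^ m = 0 := zero_pow hθ0
  have hθ3 : 3 ≤ 3 ^ m := by
    calc 3 = 3 ^ 1 := by norm_num
      _ ≤ 3 ^ m := Nat.pow_le_pow_right (by norm_num) hm
  have hq : 3 ^ (2 * m + 1) = 3 * 3 ^ m * 3 ^ m := by
    rw [pow_succ, pow_mul']
    ring
  have hF' : Fintype.card F = 3 * 3 ^ m * 3 ^ m := by rw [hF, hq]
  have h2ne : (2 : F) ≠ 0 := two_ne_zero_of_card hF
  have h3z : (3 : F) = 0 := by exact_mod_cast CharP.cast_eq_zero F 3
  have hadd : ∀ x y : F, (x + y) ^ 3 ^ m = x ^ 3 ^ m + y ^ 3 ^ m := fun x y =>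
    add_pow_char_pow x y 3 m
  have hodd : Fintype.card F % 2 = 1 := by
    rw [hF]
    have : Odd (3 ^ (2 * m + 1)) := Odd.pow (by decide)
    exact Nat.odd_iff.mp this
  -- the exponent arithmetic
  obtain ⟨N', hN'⟩ : ∃ N, N + 1 = 3 * 3 ^ m * 3 ^ m := ⟨3 * 3 ^ m * 3 ^ m - 1, by
    have : 0 < 3 * 3 ^ m * 3 ^ m := by positivity
    omega⟩
  obtain ⟨e, he⟩ : ∃ e, e + 3 = 6 * 3 ^ m := ⟨6 * 3 ^ m - 3, by omega⟩
  obtain ⟨s, hs⟩ : ∃ s, s + 2 = 3 * 3 ^ m := ⟨3 * 3 ^ m - 2, by omega⟩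
  obtain ⟨e2, he2⟩ : ∃ e2, e2 + 3 = 3 * 3 ^ m := ⟨3 * 3 ^ m - 3, by omega⟩
  obtain ⟨hE1, hE2, hE3⟩ := exp_arith (3 ^ m) N' e s e2 hN' he hs he2
  have hκN : ∀ κ : F, κ ≠ 0 → κ ^ N' = 1 := by
    intro κ hκ
    have h := FiniteField.pow_card_sub_one_eq_one κ hκ
    rw [hF', ← hN', Nat.add_sub_cancel] at h
    exact h
  have hunit1 : ∀ κ : F, κ ≠ 0 → ∃ μ : Fˣ, (μ : F) ^ (2 * 3 ^ m + 1) = κ := by
    intro κ hκ
    refine ⟨Units.mk0 κ hκ ^ e, ?_⟩
    rw [Units.val_pow_eq_pow_val, Units.val_mk0, ← pow_mul, hE1, pow_succ, pow_mul', hκN κ hκ,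
      one_pow, one_mul]
  have hunit2 : ∀ κ : F, κ ≠ 0 → ∃ μ : Fˣ, (μ : F) ^ (3 ^ m + 1) = κ ^ 2 := by
    intro κ hκ
    refine ⟨(Units.mk0 κ hκ)⁻¹ ^ e2, ?_⟩
    rw [Units.val_pow_eq_pow_val, Units.val_inv_eq_inv_val, Units.val_mk0, ← pow_mul]
    have h1 : κ⁻¹ ^ (e2 * (3 ^ m + 1)) * κ⁻¹ ^ 2 = 1 := by
      rw [← pow_add, hE3, inv_pow, hκN κ hκ, inv_one]
    rw [eq_inv_of_mul_eq_one_left h1, inv_pow, inv_inv]
  obtain ⟨t0, ht0⟩ := exists_pow_ne_self_h71 hm hF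
  -- the multiplication rule
  have hmul0 : ∀ a b t' a' b', T 0 a b * T t' a' b' = T t' (a + a') (b + b') := by
    intro a b t' a' b'
    rw [D.mul, h0θ]
    congr 1 <;> ring
  have hmulr0 : ∀ t a b a' b', T t a b * T 0 a' b' =
      T t (a + a') (b + 2 * t ^ 3 ^ m * a' + b') := by
    intro t a b a' b'
    rw [D.mul]
    congr 1 <;> ring
  have hT1 : T 0 0 0 = 1 := by
    have h := hmul0 0 0 0 0 0
    rw [add_zero] at h
    exact mul_left_cancel (h.trans (mul_one _).symm)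
  have hdec : ∀ t a b, T t a b = T 0 a 0 * T 0 0 b * T t 0 0 := by
    intro t a b
    rw [hmul0, hmul0]
    congr 1 <;> ring
  -- the coordinates of `φ`
  choose N l hNl using fun a => hφT 0 a 0
  choose a' M haM using fun b => hφT 0 0 b
  choose A B hAB using fun t => hφT t 0 0
  have hN0 : N 0 = 0 ∧ l 0 = 0 := by
    have h := hNl 0
    rw [hT1, map_one, ← hT1] at h
    obtain ⟨-, h1, h2⟩ := hinj _ _ _ _ _ _ h
    exact ⟨h1.symm, h2.symm⟩
  have hM0 : M 0 = 0 := by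
    have h := haM 0
    rw [hT1, map_one, ← hT1] at h
    obtain ⟨-, -, h2⟩ := hinj _ _ _ _ _ _ h
    exact h2.symm
  have hA0 : A 0 = 0 ∧ B 0 = 0 := by
    have h := hAB 0
    rw [hT1, map_one, ← hT1] at h
    obtain ⟨-, h1, h2⟩ := hinj _ _ _ _ _ _ h
    exact ⟨h1.symm, h2.symm⟩
  -- (0) `a' = 0`
  have ha'0 : ∀ b, a' b = 0 := by
    intro b
    obtain ⟨t1, a1, b1, h1⟩ := hsurj 1 0 0
    have hc : T 0 0 b * T t1 a1 b1 = T t1 a1 b1 * T 0 0 b := by
      rw [hmul0, hmulr0]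
      congr 1 <;> ring
    have h2 := congrArg φ hc
    rw [map_mul, map_mul, h1, haM, hmul0, hmulr0] at h2
    obtain ⟨-, -, h3⟩ := hinj _ _ _ _ _ _ h2
    rw [one_pow] at h3
    have h4 : 2 * a' b = 0 := by linear_combination -h3
    exact (mul_eq_zero.mp h4).resolve_left h2ne
  have hφM : ∀ b, φ (T 0 0 b) = T 0 0 (M b) := by
    intro b
    rw [haM, ha'0]
  have hMadd : ∀ b b', M (b + b') = M b + M b' := by
    intro b b'
    have hc : T 0 0 b * T 0 0 b' = T 0 0 (b + b') := by rw [hmul0, add_zero]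
    have h := congrArg φ hc
    rw [map_mul] at h
    simp only [hφM, hmul0] at h
    exact (hinj _ _ _ _ _ _ h).2.2.symm
  have hMtor : ∀ (ν : Fˣ) b, M ((ν : F) ^ (2 * 3 ^ m + 1) * b) =
      (ν : F) ^ (2 * 3 ^ m + 1) * M b := by
    intro ν b
    have hc : Hh ν * T 0 0 b * (Hh ν)⁻¹ = T 0 0 ((ν : F) ^ (2 * 3 ^ m + 1) * b) := by
      rw [D.conj, mul_zero, mul_zero]
    have h := congrArg φ hc
    rw [map_mul, map_mul, map_inv, hφH, hφM, hφM, D.conj, mul_zero, mul_zero] at h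
    exact (hinj _ _ _ _ _ _ h).2.2.symm
  have hMlin : ∀ b, M b = M 1 * b := by
    intro b
    by_cases hb : b = 0
    · subst hb
      rw [hM0, mul_zero]
    · obtain ⟨ν, hν⟩ := hunit1 b hb
      have h := hMtor ν 1
      rw [hν, mul_one] at h
      rw [h, mul_comm]
  have hNladd : ∀ a a', N (a + a') = N a + N a' ∧ l (a + a') = l a + l a' := by
    intro a a'
    have hc : T 0 a 0 * T 0 a' 0 = T 0 (a + a') 0 := by rw [hmul0, add_zero]
    have h := congrArg φ hc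
    rw [map_mul] at h
    simp only [hNl, hmul0] at h
    obtain ⟨-, h1, h2⟩ := hinj _ _ _ _ _ _ h
    exact ⟨h1.symm, h2.symm⟩
  -- (1) `N a = M 1 * a`
  have hN : ∀ a, N a = M 1 * a := by
    intro a
    have hc : T 1 0 0 * T 0 a 0 = T 0 0 (2 * a) * (T 0 a 0 * T 1 0 0) := by
      rw [hmulr0, hmul0, hmul0, one_pow]
      congr 1 <;> ring
    have h := congrArg φ hc
    rw [map_mul, map_mul, map_mul, hAB, hNl, hφM, hmulr0, hmul0, hmul0, one_pow] at h
    obtain ⟨-, -, h3⟩ := hinj _ _ _ _ _ _ h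
    rw [hMlin (2 * a)] at h3
    have h4 : 2 * (N a - M 1 * a) = 0 := by linear_combination h3
    exact sub_eq_zero.mp ((mul_eq_zero.mp h4).resolve_left h2ne)
  -- the torus on `A` and `B`
  have hABtor : ∀ (ν : Fˣ) t, A ((ν : F) * t) = (ν : F) ^ (3 ^ m + 1) * A t ∧
      B ((ν : F) * t) = (ν : F) ^ (2 * 3 ^ m + 1) * B t := by
    intro ν t
    have hc : Hh ν * T t 0 0 * (Hh ν)⁻¹ = T ((ν : F) * t) 0 0 := by
      rw [D.conj, mul_zero, mul_zero]
    have h := congrArg φ hc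
    rw [map_mul, map_mul, map_inv, hφH, hAB, hAB, D.conj] at h
    obtain ⟨-, h1, h2⟩ := hinj _ _ _ _ _ _ h
    exact ⟨h1.symm, h2.symm⟩
  have hA : ∀ t, A t = A 1 * t ^ (3 ^ m + 1) := by
    intro t
    by_cases ht : t = 0
    · subst ht
      rw [hA0.1, zero_pow (Nat.succ_ne_zero _), mul_zero]
    · have h := (hABtor (Units.mk0 t ht) 1).1
      rw [Units.val_mk0, mul_one] at h
      rw [h, mul_comm]
  have hB : ∀ t, B t = B 1 * t ^ (2 * 3 ^ m + 1) := by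
    intro t
    by_cases ht : t = 0
    · subst ht
      rw [hA0.2, zero_pow (Nat.succ_ne_zero _), mul_zero]
    · have h := (hABtor (Units.mk0 t ht) 1).2
      rw [Units.val_mk0, mul_one] at h
      rw [h, mul_comm]
  -- (2) the commutator of `T t 0 0` and `T t' 0 0`
  have hstar : ∀ t t', N (t ^ 3 ^ m * t' - t' ^ 3 ^ m * t) = t ^ 3 ^ m * t' - t' ^ 3 ^ m * t ∧
      l (t ^ 3 ^ m * t' - t' ^ 3 ^ m * t) + M ((t ^ 3 ^ m) ^ 2 * t' - (t' ^ 3 ^ m) ^ 2 * t) =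
        (t ^ 3 ^ m) ^ 2 * t' - (t' ^ 3 ^ m) ^ 2 * t + 2 * t ^ 3 ^ m * A t'
          - 2 * t' ^ 3 ^ m * A t := by
    intro t t'
    have hc : T t 0 0 * T t' 0 0 = T 0 (t ^ 3 ^ m * t' - t' ^ 3 ^ m * t) 0 *
        T 0 0 ((t ^ 3 ^ m) ^ 2 * t' - (t' ^ 3 ^ m) ^ 2 * t) * (T t' 0 0 * T t 0 0) := by
      simp only [D.mul, h0θ]
      congr 1 <;> ring
    have h := congrArg φ hc
    simp only [map_mul] at h
    simp only [hAB, hNl, hφM] at h
    simp only [D.mul, h0θ] at h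
    obtain ⟨-, h2, h3⟩ := hinj _ _ _ _ _ _ h
    constructor
    · linear_combination -h2
    · linear_combination -h3
  have hM1 : M 1 = 1 := by
    have h := (hstar t0 1).1
    rw [hN] at h
    have hc : t0 ^ 3 ^ m * 1 - 1 ^ 3 ^ m * t0 ≠ 0 := by
      rw [mul_one, one_pow, one_mul]
      exact sub_ne_zero.mpr ht0
    have h4 : (M 1 - 1) * (t0 ^ 3 ^ m * 1 - 1 ^ 3 ^ m * t0) = 0 := by linear_combination h
    exact sub_eq_zero.mp ((mul_eq_zero.mp h4).resolve_right hc)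
  have hM' : ∀ b, M b = b := by
    intro b
    rw [hMlin, hM1, one_mul]
  have hN' : ∀ a, N a = a := by
    intro a
    rw [hN, hM1, one_mul]
  -- (3) `A = 0`
  have h2θ : (2 : F) ^ 3 ^ m = 2 := by
    have h := hadd 1 1
    rw [one_pow, one_add_one_eq_two] at h
    exact h
  have hA1 : A 1 = 0 := by
    have h := (hstar 2 1).2
    rw [hM', h2θ, one_pow, hA 2, pow_succ (2 : F) (3 ^ m), h2θ] at h
    have h5 : (2 : F) * 1 - 1 * 2 = 0 := by ring
    rw [h5, hN0.2] at h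
    have h4 : 2 * 2 * A 1 = 0 := by linear_combination h
    exact (mul_eq_zero.mp h4).resolve_left (mul_ne_zero h2ne h2ne)
  have hA' : ∀ t, A t = 0 := by
    intro t
    rw [hA t, hA1, zero_mul]
  -- (4) `l = 0`
  have hl2 : ∀ t t', l (t ^ 3 ^ m * t' - t' ^ 3 ^ m * t) = 0 := by
    intro t t'
    have h := (hstar t t').2
    rw [hM', hA', hA'] at h
    linear_combination h
  have hl3 : ∀ κ : F, l (κ ^ 2 * (t0 ^ 3 ^ m - t0)) = 0 := by
    intro κ
    by_cases hκ : κ = 0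
    · subst hκ
      rw [zero_pow (by norm_num), zero_mul, hN0.2]
    · obtain ⟨μ, hμ⟩ := hunit2 κ hκ
      have h := hl2 ((μ : F) * t0) (μ : F)
      have h5 : ((μ : F) * t0) ^ 3 ^ m * (μ : F) - (μ : F) ^ 3 ^ m * ((μ : F) * t0) =
          κ ^ 2 * (t0 ^ 3 ^ m - t0) := by
        rw [← hμ]
        ring
      rw [h5] at h
      exact h
  have hl' : ∀ x, l x = 0 := by
    intro x
    have hc : t0 ^ 3 ^ m - t0 ≠ 0 := sub_ne_zero.mpr ht0
    obtain ⟨a, b, hab⟩ := exists_sq_add_sq_h71 hodd (x / (t0 ^ 3 ^ m - t0))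
    have hx : x = a ^ 2 * (t0 ^ 3 ^ m - t0) + b ^ 2 * (t0 ^ 3 ^ m - t0) := by
      rw [← add_mul, hab, div_mul_cancel₀ _ hc]
    rw [hx, (hNladd _ _).2, hl3, hl3, add_zero]
  -- the shape of `φ`
  have hφg : ∀ t a b, φ (T t a b) = T t a (b + B t) := by
    intro t a b
    rw [hdec t a b, map_mul, map_mul, hNl, hφM, hAB, hmul0, hmul0, hN', hl', hM', hA']
    congr 1 <;> ring
  -- (5) `B = 0`
  have hB1 : B 1 = 0 := by
    have hc : T t0 0 0 * T 1 0 0 = T (t0 + 1) (t0 ^ 3 ^ m) ((t0 ^ 3 ^ m) ^ 2) := by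
      rw [D.mul]
      congr 1 <;> ring
    have h := congrArg φ hc
    rw [map_mul, hφg, hφg, hφg, D.mul] at h
    obtain ⟨-, -, h3⟩ := hinj _ _ _ _ _ _ h
    rw [hB (t0 + 1), hB t0] at h3
    have h6 : (t0 + 1) ^ (2 * 3 ^ m + 1) = (t0 ^ 3 ^ m + 1) ^ 2 * (t0 + 1) := by
      rw [pow_succ, pow_mul', hadd, one_pow]
    have h7 : t0 ^ (2 * 3 ^ m + 1) = (t0 ^ 3 ^ m) ^ 2 * t0 := by
      rw [pow_succ, pow_mul']
    rw [h6, h7] at h3
    have hne1 : t0 ^ 3 ^ m - 1 ≠ 0 := by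
      intro h8
      have h9 : (t0 - 1) ^ 3 ^ m = 0 := by
        have := hadd (t0 - 1) 1
        rw [sub_add_cancel, one_pow] at this
        rw [this] at h8
        linear_combination h8
      have h10 : t0 = 1 := sub_eq_zero.mp (pow_eq_zero_iff hθ0 |>.mp h9)
      apply ht0
      rw [h10, one_pow]
    have hne2 : t0 ^ 3 ^ m - t0 ≠ 0 := sub_ne_zero.mpr ht0
    have h4 : B 1 * ((t0 ^ 3 ^ m - 1) * (t0 ^ 3 ^ m - t0)) = 0 := by
      linear_combination -h3 - (B 1 * (t0 ^ 3 ^ m * t0 + t0 ^ 3 ^ m)) * h3z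
    exact (mul_eq_zero.mp h4).resolve_right (mul_ne_zero hne1 hne2)
  intro t a b
  rw [hφg, hB, hB1, zero_mul, add_zero]

end Cfsg.Agent.Lib.Helper71.ReeOut
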